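import Cfsg.Agent.PQ.Tw.Op
import Cfsg.Agent.Characters.Core

/-!
# PQ, towers: the 4-cycle from the identities between the levels of four towers (helper60)
-/

set_option autoImplicit false
set_option linter.unusedSectionVars false

namespace Cfsg.Agent.PQ.Tw

open Module Cfsg Cfsg.Agent.PQ.Th Finset
open scoped ComplexConjugate

attribute [local instance] GT.grp GT.fin

open Classical in
/-- `0` for odd, `1` for even defect -/
noncomputable def dz (D : ZMod 4) : ℕ := if Od D then 0 else 1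

/-- four towers with Harish-Chandra and theta operators -/
structure TS (T : GT) where
  A : Type
  lv : A → ℕ → T.Λ
  off : A → ℕ
  dA : A → ZMod 4
  dm : A → ℕ → ℕ
  rk_lv : ∀ a n, T.rk (lv a n) = n + off a
  df_lv : ∀ a n, T.df (lv a n) = dA a
  onto : ∀ l, ∃ a n, l = lv a n
  inj : ∀ a b, dA a = dA b → a = b
  sur : ∀ D, ∃ a, dA a = D
  hop : ℕ → ℕ → Fam T
  top : Fam T
  hop_gen : ∀ i j l' l f, IsGeneralizedCharacter (T.G l) f → IsGeneralizedCharacter (T.G l') ((hop i j).A l' l f)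
  top_gen : ∀ l' l f, IsGeneralizedCharacter (T.G l) f → IsGeneralizedCharacter (T.G l') (top.A l' l f)
  hop_adj : ∀ i j l' l f φ, classInner ((hop i j).A l' l f) φ = classInner f ((hop j i).A l l' φ)
  top_adj : ∀ l' l f φ, classInner (top.A l' l f) φ = classInner f (top.A l l' φ)
  hop_id : ∀ l f, IsClassFunction (T.G l) f → (hop 0 0).A l l f = f
  empty : ∀ a n' n i j f, n' < i ∨ n < j ∨ n' + j ≠ n + i → (hop i j).A (lv a n') (lv a n) f = 0
  mul : ∀ a n' m n i j f, n' = m + i →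
    (hop i 0).A (lv a n') (lv a m) ((hop 0 j).A (lv a m) (lv a n) f) = (hop i j).A (lv a n') (lv a n) f
  mackey : ∀ a n' m n k l f, m = n' + k → m = n + l →
    (hop 0 k).A (lv a n') (lv a m) ((hop l 0).A (lv a m) (lv a n) f) =
      ∑ r ∈ range (min k l + 1), ((r : ℂ) + 1) • (hop (l - r) (k - r)).A (lv a n') (lv a n) f
  par : ∀ l' l f, (Od (T.df l') ↔ Od (T.df l)) → top.A l' l f = 0
  ind : ∀ a b n' n k f, dA b + 1 = dA a → top.A (lv a n') (lv b (n + k)) ((hop k 0).A (lv b (n + k)) (lv b n) f) =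
    ∑ i ∈ range (k + 1), (hop i 0).A (lv a n') (lv a (n' - i)) (top.A (lv a (n' - i)) (lv b n) f)
  res : ∀ a b n' n k f, dA b + 1 = dA a → (hop 0 k).A (lv a n') (lv a (n' + k)) (top.A (lv a (n' + k)) (lv b n) f) =
    ∑ i ∈ range (k + 1), top.A (lv a n') (lv b (n - i)) ((hop 0 i).A (lv b (n - i)) (lv b n) f)
  two : ∀ a b c n' n m m' N f, dA a + 1 = dA b → dA c + 1 = dA a →
    m + off b + (m' + off c) + dz (dA a) = n + off a + (n' + off a) → dm a n' < N → dm a n < N →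
    top.A (lv a n') (lv b m) (top.A (lv b m) (lv a n) f) + top.A (lv a n') (lv c m') (top.A (lv c m') (lv a n) f) =
      ∑ i ∈ range N, ∑ j ∈ range N, (hop i j).A (lv a n') (lv a n) f
  one : ∀ a b c n' n m N f, (dA a + 1 = dA b ∧ dA c + 1 = dA a ∨ dA a + 1 = dA c ∧ dA b + 1 = dA a) →
    n + off a + (n' + off a) < m + off b + off c + dz (dA a) → dm a n' < N → dm a n < N →
    top.A (lv a n') (lv b m) (top.A (lv b m) (lv a n) f) = ∑ i ∈ range N, ∑ j ∈ range N, (hop i j).A (lv a n') (lv a n) f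
  small : ∀ a b c, dA a + 1 = dA b → dA c + 1 = dA a → off b + off c + dz (dA a) ≤ 1
  five : ∀ a b c n' n m f, ¬ Od (dA a) → dA a + 1 = dA b → dA b + 1 = dA c → n + off a + (n' + off c) ≤ m + off b →
    top.A (lv c n') (lv b m) (top.A (lv b m) (lv a n) f) = 0

/-- the vacuum -/
structure Vc {T : GT} (S : TS T) (a₀ a₁ : S.A) : Prop where
  d₀ : S.dA a₀ = 1
  d₁ : S.dA a₁ = 0
  o₀ : S.off a₀ = 0
  o₁ : S.off a₁ = 0
  v1 : S.top.A (S.lv a₁ 0) (S.lv a₀ 0) 1 = 1
  v2 : ∀ b, S.dA b = 2 → S.off b = 0 → S.top.A (S.lv b 0) (S.lv a₀ 0) 1 = 0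
  v3 : ∀ a n, Od (S.dA a) → S.top.A (S.lv a n) (S.lv a₁ 0) 1 = 1

namespace TS

variable {T : GT} (S : TS T)

theorem rl {a b : S.A} {n' m : ℕ} {d : ℤ} {s : ZMod 4} (h1 : (m : ℤ) + S.off b + d = n' + S.off a)
    (h2 : S.dA b + s = S.dA a) : Rl T d s (S.lv b m) (S.lv a n') :=
  ⟨by rw [S.rk_lv, S.rk_lv]; push_cast; exact h1, by rw [S.df_lv, S.df_lv, h2]⟩

theorem res_lv (B : Fam T) {a b : S.A} {n' : ℕ} (m : ℕ) {d : ℤ} {s : ZMod 4} (h1 : (m : ℤ) + S.off b + d = n' + S.off a)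
    (h2 : S.dA b + s = S.dA a) (f : T.V) :
    T.res (B.op d s f) (S.lv a n') = B.A (S.lv a n') (S.lv b m) (T.res f (S.lv b m)) := B.res_op (S.rl h1 h2) f

theorem res_lv0 (B : Fam T) {a : S.A} (b : S.A) {n' : ℕ} {d : ℤ} {s : ZMod 4} (h1 : (n' : ℤ) + S.off a < S.off b + d)
    (h2 : S.dA b + s = S.dA a) (f : T.V) : T.res (B.op d s f) (S.lv a n') = 0 := by
  refine B.res_op_zero fun l hl => ?_
  obtain ⟨c, m, rfl⟩ := S.onto l
  have e1 := hl.1
  have e2 := hl.2
  rw [S.rk_lv, S.rk_lv] at e1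
  rw [S.df_lv, S.df_lv, ← h2] at e2
  obtain rfl := S.inj _ _ (add_right_cancel e2)
  push_cast at e1
  omega

/-- induction -/
noncomputable def h (k : ℕ) : End ℂ T.V := (S.hop k 0).op k 0

/-- restriction -/
noncomputable def hs (k : ℕ) : End ℂ T.V := (S.hop 0 k).op (-k) 0

/-- raising -/
noncomputable def R (d : ℤ) : End ℂ T.V := S.top.op d 1

/-- lowering -/
noncomputable def L (d : ℤ) : End ℂ T.V := S.top.op d (-1)

theorem res_h (a : S.A) {n' m k : ℕ} (e : n' = m + k) (f : T.V) :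
    T.res (S.h k f) (S.lv a n') = (S.hop k 0).A (S.lv a n') (S.lv a m) (T.res f (S.lv a m)) :=
  S.res_lv _ m (by omega) (add_zero _) f

theorem res_h0 (a : S.A) {n' k : ℕ} (e : n' < k) (f : T.V) : T.res (S.h k f) (S.lv a n') = 0 :=
  S.res_lv0 _ a (by omega) (add_zero _) f

theorem res_hs (a : S.A) {n' m k : ℕ} (e : m = n' + k) (f : T.V) :
    T.res (S.hs k f) (S.lv a n') = (S.hop 0 k).A (S.lv a n') (S.lv a m) (T.res f (S.lv a m)) :=
  S.res_lv _ m (by omega) (add_zero _) f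

theorem res_hhs (a : S.A) {n' n i j : ℕ} (e : n' + j = n + i) (f : T.V) :
    T.res (S.h i (S.hs j f)) (S.lv a n') = (S.hop i j).A (S.lv a n') (S.lv a n) (T.res f (S.lv a n)) := by
  rcases lt_or_ge n' i with h | h
  · rw [S.res_h0 a h, S.empty a n' n i j _ (Or.inl h)]
  · rw [S.res_h a (m := n' - i) (by omega), S.res_hs a (m := n) (by omega), S.mul a n' _ n i j _ (by omega)]

theorem h_zero : S.h 0 = 1 := by
  refine LinearMap.ext fun f => res_ext fun l => ?_
  obtain ⟨a, n, rfl⟩ := S.onto l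
  rw [S.res_h a (n' := n) (m := n) (k := 0) rfl, S.hop_id _ _ (res_cls f _)]
  rfl

theorem g2 (k l : ℕ) :
    S.hs k * S.h l = ∑ r ∈ range (min k l + 1), ((r : ℂ) + 1) • (S.h (l - r) * S.hs (k - r)) := by
  refine LinearMap.ext fun f => res_ext fun x => ?_
  obtain ⟨a, n', rfl⟩ := S.onto x
  rw [LinearMap.sum_apply, res_sum, End.mul_apply, S.res_hs a rfl]
  rcases lt_or_ge (n' + k) l with h | h
  · rw [S.res_h0 a h, map_zero]
    refine (sum_eq_zero fun r hr => ?_).symm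
    have := mem_range.1 hr
    rw [LinearMap.smul_apply, res_smul, End.mul_apply, S.res_h0 a (by omega), smul_zero]
  · rw [S.res_h a (m := n' + k - l) (by omega), S.mackey a n' _ _ k l _ rfl (by omega)]
    refine sum_congr rfl fun r hr => ?_
    have := mem_range.1 hr
    rw [LinearMap.smul_apply, res_smul, End.mul_apply, S.res_hhs a (n := n' + k - l) (by omega)]

theorem g3 (d : ℤ) (k : ℕ) : S.R d * S.h k = ∑ i ∈ range (k + 1), S.h i * S.R (d + k - i) := by
  refine LinearMap.ext fun f => res_ext fun x => ?_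
  obtain ⟨a, n', rfl⟩ := S.onto x
  obtain ⟨b, hb⟩ := S.sur (S.dA a - 1)
  have hb' : S.dA b + 1 = S.dA a := by rw [hb, sub_add_cancel]
  rw [LinearMap.sum_apply, res_sum, End.mul_apply]
  rcases lt_or_ge ((n' : ℤ) + S.off a) (S.off b + k + d) with h | h
  · rw [sum_eq_zero fun i _ => ?_]
    · rcases lt_or_ge ((n' : ℤ) + S.off a) (S.off b + d) with h' | h'
      · exact S.res_lv0 _ b h' hb' _
      · rw [R, S.res_lv _ ((n' : ℤ) + S.off a - S.off b - d).toNat (by omega) hb', S.res_h0 b (by omega), map_zero]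
    · rw [End.mul_apply]
      rcases lt_or_ge n' i with h' | h'
      · exact S.res_h0 a h' _
      · rw [S.res_h a (m := n' - i) (by omega), R, S.res_lv0 _ b (by omega) hb', map_zero]
  · obtain ⟨n, hn⟩ : ∃ n : ℕ, (n : ℤ) + S.off b + k + d = n' + S.off a := ⟨((n' : ℤ) + S.off a - S.off b - k - d).toNat, by omega⟩
    rw [R, S.res_lv _ (n + k) (by push_cast; omega) hb', S.res_h b rfl, S.ind a b n' n k _ hb']
    refine sum_congr rfl fun i _ => ?_
    rw [End.mul_apply]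
    rcases lt_or_ge n' i with h' | h'
    · rw [S.res_h0 a h', S.empty a _ _ _ _ _ (Or.inl h')]
    · rw [S.res_h a (m := n' - i) (by omega), R, S.res_lv _ n (by omega) hb']

theorem g3' (d : ℤ) (k : ℕ) : S.hs k * S.R d = ∑ i ∈ range (k + 1), S.R (d - k + i) * S.hs i := by
  refine LinearMap.ext fun f => res_ext fun x => ?_
  obtain ⟨a, n', rfl⟩ := S.onto x
  obtain ⟨b, hb⟩ := S.sur (S.dA a - 1)
  have hb' : S.dA b + 1 = S.dA a := by rw [hb, sub_add_cancel]
  rw [LinearMap.sum_apply, res_sum, End.mul_apply, S.res_hs a rfl]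
  rcases lt_or_ge ((n' : ℤ) + k + S.off a) (S.off b + d) with h | h
  · rw [R, S.res_lv0 _ b (by push_cast; omega) hb', map_zero]
    refine (sum_eq_zero fun i _ => ?_).symm
    rw [End.mul_apply, R, S.res_lv0 _ b (by omega) hb']
  · obtain ⟨n, hn⟩ : ∃ n : ℕ, (n : ℤ) + S.off b + d = n' + k + S.off a := ⟨((n' : ℤ) + k + S.off a - S.off b - d).toNat, by omega⟩
    rw [R, S.res_lv _ n (by push_cast; omega) hb', S.res a b n' n k _ hb']
    refine sum_congr rfl fun i _ => ?_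
    rw [End.mul_apply, R]
    rcases lt_or_ge n i with h' | h'
    · rw [S.res_lv0 _ b (by omega) hb', S.empty b _ _ _ _ _ (Or.inr (Or.inl h')), map_zero]
    · rw [S.res_lv _ (n - i) (by omega) hb', S.res_hs b (m := n) (by omega)]

/-- the double sum lives on a diagonal -/
theorem sum_diag (a : S.A) (n' n N M : ℕ) (hN : n < N) (hN' : n' < N) (hM : n < M) (f : T.V) (e : ℤ) (he : e + n = n') :
    ∑ i ∈ range N, ∑ j ∈ range N, (S.hop i j).A (S.lv a n') (S.lv a n) (T.res f (S.lv a n)) =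
      ∑ j ∈ range M, T.res (ez S.h (e + j) (S.hs j f)) (S.lv a n') := by
  have h1 : ∀ j, ∑ i ∈ range N, (S.hop i j).A (S.lv a n') (S.lv a n) (T.res f (S.lv a n)) =
      (S.hop (n' + j - n) j).A (S.lv a n') (S.lv a n) (T.res f (S.lv a n)) := fun j =>
    sum_eq_single _ (fun i _ hi => S.empty a _ _ _ _ _ (by omega)) fun h => S.empty a _ _ _ _ _ (by
      rw [mem_range] at h
      omega)
  have h2 : ∀ j : ℕ, T.res (ez S.h (e + j) (S.hs j f)) (S.lv a n') =
      (S.hop (n' + j - n) j).A (S.lv a n') (S.lv a n) (T.res f (S.lv a n)) := fun j => by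
    rw [ez]
    split_ifs with h
    · rw [S.res_hhs a (n := n) (by omega), show (e + j).toNat = n' + j - n by omega]
    · rw [S.empty a _ _ _ _ _ (by omega)]
      rfl
  have h3 : ∀ K, n < K → ∑ j ∈ range K, (S.hop (n' + j - n) j).A (S.lv a n') (S.lv a n) (T.res f (S.lv a n)) =
      ∑ j ∈ range (n + 1), (S.hop (n' + j - n) j).A (S.lv a n') (S.lv a n) (T.res f (S.lv a n)) := fun K hK =>
    (sum_subset (range_subset_range.2 hK) fun j _ hj => S.empty a _ _ _ _ _ (by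
      rw [mem_range] at hj
      omega)).symm
  rw [sum_comm, sum_congr rfl fun j _ => h1 j, sum_congr rfl fun j _ => h2 j, h3 N hN, h3 M hM]

variable {H : HS T.V}

theorem g4 (hH : Mod T H) (d d' : ℤ) (i : H.ι) :
    S.L d (S.R (-d') (H.b i)) + S.R (H.dl i - d') (S.L (d - H.dl i) (H.b i)) =
      ∑ j ∈ range (H.rk i + 1), ez S.h (d - d' + j) (S.hs j (H.b i)) := by
  obtain ⟨l₀, e1, e2, h0⟩ := exists_sup hH i
  refine res_ext fun l' => ?_
  rw [res_add, res_sum]
  by_cases hl : Rl T (d - d') 0 l₀ l'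
  · obtain ⟨a, n, rfl⟩ := S.onto l₀
    obtain ⟨a', n', rfl⟩ := S.onto l'
    have h1 := hl.1
    have h2 := hl.2
    rw [S.df_lv, S.df_lv, add_zero] at h2
    obtain rfl := S.inj _ _ h2
    rw [S.rk_lv, S.rk_lv] at h1
    rw [S.rk_lv] at e1
    rw [S.df_lv] at e2
    push_cast at h1
    have hδ : H.dl i = dz (S.dA a) := by
      rw [HS.dl, dz, e2]
      split_ifs <;> rfl
    obtain ⟨b, hb⟩ := S.sur (S.dA a + 1)
    obtain ⟨c, hc⟩ := S.sur (S.dA a - 1)
    have hb1 : S.dA b + -1 = S.dA a := by rw [hb, add_neg_cancel_right]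
    have hc1 : S.dA c + 1 = S.dA a := by rw [hc, sub_add_cancel]
    have hc2 : S.dA a + -1 = S.dA c := by rw [hc, sub_eq_add_neg]
    have hs := S.small a b c hb.symm hc1
    rw [← S.sum_diag a n' n (n + n' + S.dm a n' + S.dm a n + 1) (H.rk i + 1) (by omega) (by omega) (by omega) (H.b i) (d - d')
      (by omega), hδ, L, R, L, R]
    rcases lt_or_ge ((n' : ℤ) + S.off a) (S.off b + d) with hm | hm
    · obtain ⟨m', hm'⟩ : ∃ m' : ℕ, (m' : ℤ) + S.off c + (dz (S.dA a) - d') = n' + S.off a :=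
        ⟨((n' : ℤ) + S.off a - S.off c - (dz (S.dA a) - d')).toNat, by omega⟩
      rw [S.res_lv0 _ b hm hb1, zero_add, S.res_lv _ m' hm' hc1, S.res_lv _ n (by omega) hc2]
      exact S.one a c b n' n m' _ _ (Or.inr ⟨hb.symm, hc1⟩) (by omega) (by omega) (by omega)
    · obtain ⟨m, hm1⟩ : ∃ m : ℕ, (m : ℤ) + S.off b + d = n' + S.off a := ⟨((n' : ℤ) + S.off a - S.off b - d).toNat, by omega⟩
      rw [S.res_lv _ m hm1 hb1, S.res_lv _ n (by omega) hb.symm]
      rcases lt_or_ge ((n' : ℤ) + S.off a) (S.off c + (dz (S.dA a) - d')) with hm' | hm'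
      · rw [S.res_lv0 _ c hm' hc1, add_zero]
        exact S.one a b c n' n m _ _ (Or.inl ⟨hb.symm, hc1⟩) (by omega) (by omega) (by omega)
      · obtain ⟨m', hm2⟩ : ∃ m' : ℕ, (m' : ℤ) + S.off c + (dz (S.dA a) - d') = n' + S.off a :=
          ⟨((n' : ℤ) + S.off a - S.off c - (dz (S.dA a) - d')).toNat, by omega⟩
        rw [S.res_lv _ m' hm2 hc1, S.res_lv _ n (by omega) hc2]
        exact S.two a b c n' n m m' _ _ hb.symm hc1 (by omega) (by omega) (by omega)
  · have key : ∀ (e : ℤ) (s : ZMod 4), e = d - d' → s = 0 → ∀ l, Rl T e s l l' → T.res (H.b i) l = 0 := by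
      rintro _ _ rfl rfl l h
      exact h0 l (by rintro rfl; exact hl h)
    rw [L, R, L, R, Fam.res_op_op_zero _ _ (key _ _ (by ring) (by ring)), Fam.res_op_op_zero _ _ (key _ _ (by ring) (by ring)),
      add_zero]
    refine (sum_eq_zero fun j _ => ?_).symm
    rw [ez]
    split_ifs with h
    · exact Fam.res_op_op_zero _ _ (key _ _ (by omega) (add_zero _))
    · rfl

theorem g5 (hH : Mod T H) (d d' : ℤ) (i : H.ι) (hi : ¬ Od (H.df i)) (hd : H.rk i + d ≤ 0) :
    S.R d (S.R d' (H.b i)) = 0 := by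
  obtain ⟨l₀, e1, e2, h0⟩ := exists_sup hH i
  refine res_ext fun l' => ?_
  rw [res_zero, R, R]
  by_cases hl : Rl T (d' + d) (1 + 1) l₀ l'
  · obtain ⟨a, n, rfl⟩ := S.onto l₀
    obtain ⟨c, n', rfl⟩ := S.onto l'
    have h1 := hl.1
    have h2 := hl.2
    rw [S.df_lv, S.df_lv] at h2
    rw [S.rk_lv, S.rk_lv] at h1
    rw [S.rk_lv] at e1
    rw [S.df_lv] at e2
    push_cast at h1
    obtain ⟨b, hb⟩ := S.sur (S.dA a + 1)
    have hb1 : S.dA b + 1 = S.dA c := by rw [hb, add_assoc, h2]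
    rcases lt_or_ge ((n' : ℤ) + S.off c) (S.off b + d) with hm | hm
    · exact S.res_lv0 _ b hm hb1 _
    · obtain ⟨m, hm1⟩ : ∃ m : ℕ, (m : ℤ) + S.off b + d = n' + S.off c := ⟨((n' : ℤ) + S.off c - S.off b - d).toNat, by omega⟩
      rw [S.res_lv _ m hm1 hb1, S.res_lv _ n (by omega) hb.symm]
      exact S.five a b c n' n m _ (by rwa [e2]) hb.symm hb1 (by omega)
  · exact Fam.res_op_op_zero _ _ fun l h => h0 l (by rintro rfl; exact hl h)

open Classical in
theorem T_apply (e : ℤ) (f : T.V) (y : T.X) : ((S.R e + S.L e) f).1 y =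
    ∑ᶠ l, if (T.rk l : ℤ) + e = T.rk y.1 then S.top.A y.1 l (T.res f l) y.2 else 0 := by
  have fin : ∀ s : ZMod 4, (Function.support fun l => if Rl T e s l y.1 then S.top.A y.1 l (T.res f l) y.2 else 0).Finite :=
    fun s => Set.Subsingleton.finite fun l hl m hm => Rl.uniq (by_contra fun h => hl (if_neg h)) (by_contra fun h => hm (if_neg h))
  have h1 : ((S.R e + S.L e) f).1 y = (S.top.op e 1 f).1 y + (S.top.op e (-1) f).1 y := rfl
  rw [h1, Fam.op_apply, Fam.op_apply, ← finsum_add_distrib (fin _) (fin _)]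
  refine finsum_congr fun l => ?_
  have hz : ∀ D D' : ZMod 4, (D + 1 = D' ∧ ¬ D + -1 = D') ∨ (¬ D + 1 = D' ∧ D + -1 = D') ∨
      (¬ D + 1 = D' ∧ ¬ D + -1 = D' ∧ ((D' = 1 ∨ D' = 3) ↔ (D = 1 ∨ D = 3))) := by decide
  by_cases h : (T.rk l : ℤ) + e = T.rk y.1
  · rw [if_pos h]
    rcases hz (T.df l) (T.df y.1) with ⟨h2, h3⟩ | ⟨h2, h3⟩ | ⟨h2, h3, h4⟩
    · rw [if_pos ⟨h, h2⟩, if_neg fun h' => h3 h'.2, add_zero]
    · rw [if_neg fun h' => h2 h'.2, if_pos ⟨h, h3⟩, zero_add]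
    · rw [if_neg fun h' => h2 h'.2, if_neg fun h' => h3 h'.2, S.par _ _ _ h4, add_zero]
      rfl
  · rw [if_neg h, if_neg fun h' => h h'.1, if_neg fun h' => h h'.1, add_zero]

theorem T_sup (e : ℤ) {u : T.V} {l : T.Λ} (hu : Sup u l) (l' : T.Λ) : T.res ((S.R e + S.L e) u) l' =
    if (T.rk l : ℤ) + e = T.rk l' then S.top.A l' l (T.res u l) else 0 := by
  funext g
  refine (S.T_apply e u ⟨l', g⟩).trans ((finsum_eq_single _ l fun m hm => ?_).trans ?_)
  · rw [hu m hm, map_zero]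
    exact ite_self _
  · split_ifs <;> rfl

/-- the principal characters from a principal character of rank zero -/
theorem ones {u : T.V} {a : S.A} (h0 : S.off a = 0) (hu : Sup u (S.lv a 0)) (h1 : T.res u (S.lv a 0) = 1) (od : Bool)
    (hod : ¬ (Od (S.dA a) ↔ od = true)) (hv : ∀ b n, (Od (S.dA b) ↔ od = true) → S.top.A (S.lv b n) (S.lv a 0) 1 = 1) :
    Ones (fun n => (S.R n + S.L n) u) od := by
  rintro n ⟨l, g⟩
  obtain ⟨b, m, rfl⟩ := S.onto l
  refine (congrFun (S.T_sup n hu (S.lv b m)) g).trans ?_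
  rw [h1, S.rk_lv a, h0]
  by_cases h2 : (T.rk (S.lv b m) : ℤ) = n
  · rw [if_pos (by simpa using h2.symm)]
    by_cases h3 : Od (T.df (S.lv b m)) ↔ od = true
    · rw [if_pos ⟨h2, h3⟩, hv b m (by rwa [S.df_lv] at h3)]
      rfl
    · rw [if_neg fun h => h3 h.2, S.par _ _ _ (by
        rw [S.df_lv a]
        exact (not_iff.1 h3).trans (not_iff.1 hod).symm |> not_iff_not.1)]
      rfl
  · rw [if_neg (by simpa using fun h => h2 h.symm), if_neg fun h => h2 h.1]
    rfl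

theorem exists_o (hH : Mod T H) {a₀ a₁ : S.A} (v : Vc S a₀ a₁) : ∃ o, H.rk o = 0 ∧ H.df o = 1 ∧ Sup (H.b o) (S.lv a₀ 0) ∧
    T.res (H.b o) (S.lv a₀ 0) = 1 := by
  obtain ⟨o, h1, h2, h3⟩ := hH.all (S.lv a₀ 0) 1 Characters.Core.isIrr_one
  exact ⟨o, by rw [h1, S.rk_lv, v.o₀], by rw [h2, S.df_lv, v.d₀], sup_of hH h1 h2, h3⟩

theorem od_one : Od 1 := Or.inl rfl

theorem not_od_zero : ¬ Od 0 := by unfold Od; decide

/-- **the 4-cycle** -/
theorem exists_cyc (hH : Mod T H) {a₀ a₁ : S.A} (v : Vc S a₀ a₁) : ∃ C : Cyc H, (∀ e, C.T e = S.R e + S.L e) ∧ Ones C.oo true ∧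
    ((∀ b n, ¬ Od (S.dA b) → S.top.A (S.lv b n) (S.lv a₀ 0) 1 = 1) → Ones C.oe false) := by
  obtain ⟨o, o1, o2, o3, o4⟩ := S.exists_o hH v
  have hR : S.R 0 (H.b o) = 0 := by
    refine res_ext fun l' => ?_
    by_cases h : Rl T 0 1 (S.lv a₀ 0) l'
    · obtain ⟨b, m, rfl⟩ := S.onto l'
      have h1 := h.1
      have h2 := h.2
      rw [S.rk_lv, S.rk_lv, v.o₀] at h1
      rw [S.df_lv, S.df_lv, v.d₀] at h2
      obtain rfl : m = 0 := by omega
      rw [R, S.top.res_op h, o4, v.v2 b h2.symm (by omega)]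
      rfl
    · exact S.top.res_op_zero fun l hl => o3 l (by rintro rfl; exact h hl)
  let C : Cyc H :=
    { h := S.h
      hs := S.hs
      R := S.R
      L := S.L
      h0 := S.h_zero
      h_hom := fun k => Fam.op_hom _ _ _ hH
      h_itg := fun k => Fam.op_itg _ _ _ hH (S.hop_gen k 0)
      h_adj := fun k => by
        have := Fam.op_adj (S.hop k 0) k 0 hH (S.hop 0 k) (S.hop_adj k 0)
        rwa [neg_zero] at this
      R_hom := fun d => Fam.op_hom _ _ _ hH
      R_itg := fun d => Fam.op_itg _ _ _ hH S.top_gen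
      R_adj := fun d => Fam.op_adj _ _ _ hH _ S.top_adj
      g2 := S.g2
      g3 := S.g3
      g3' := S.g3'
      g4 := S.g4 hH
      g5 := S.g5 hH
      o := o
      o_df := o2
      o_rk := o1
      o_R := hR }
  refine ⟨C, fun _ => rfl, ?_, fun hv => ?_⟩
  · have hr : Rl T 0 (-1) (S.lv a₀ 0) (S.lv a₁ 0) := S.rl (by rw [v.o₀, v.o₁]; rfl) (by rw [v.d₀, v.d₁]; rfl)
    have e : (S.R 0 + S.L 0) (H.b o) = S.L 0 (H.b o) := by rw [LinearMap.add_apply, hR, zero_add]
    refine S.ones (u := (S.R 0 + S.L 0) (H.b o)) v.o₁ (fun m hm => ?_) ?_ true (by rw [v.d₁]; simpa using not_od_zero)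
      fun b n hb => v.v3 b n (hb.2 rfl)
    · rw [e]
      refine S.top.res_op_zero fun l hl => o3 l ?_
      rintro rfl
      exact hm (hl.symm.uniq hr.symm)
    · rw [e, L, S.top.res_op hr, o4, v.v1]
  · exact S.ones (u := H.b o) v.o₀ o3 o4 false (by rw [v.d₀]; simpa using od_one) fun b n hb => hv b n (by simpa using hb)

end TS

end Cfsg.Agent.PQ.Tw
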