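import Cfsg.Agent.PQ.Th.Grp
import Cfsg.Agent.PQ.G4.Op
import Cfsg.Agent.PQ.Mk.TwA

/-!
# PQ, towers: the properties of a Weil kernel on the level of formed spaces (helper60)

`WkT θ χ od` : `θ` is a kernel for the pairs (symplectic, orthogonal of parity `od`), the Harish-Chandra operators are
`opx χ` on the symplectic side and `op` on the orthogonal side. `tS θ Φ Ψ = ko (θ Φ Ψ)`, `tO θ Ψ Φ` is the adjoint
(for `θ = th ψ` these are `thS ψ`, `thO ψ` by `rfl`, for `θ = tx ψ` they are `txS ψ`, `txO ψ`).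
-/

set_option autoImplicit false
set_option linter.unusedSectionVars false

namespace Cfsg.Agent.PQ.Tw

open Module Cfsg Cfsg.Agent.PQ.Mk Cfsg.Agent.PQ.G4 Cfsg.Agent.PQ.Th

/-- the parity -/
def Par (od : Bool) (n : ℕ) : Prop := Odd n ↔ od = true

theorem Par.even {n : ℕ} (h : Par false n) : Even n := Nat.not_odd_iff_even.1 fun h' => absurd (h.1 h') (by simp)

theorem Par.odd {n : ℕ} (h : Par true n) : Odd n := h.2 rfl

variable {F : Type} [Field F] [Finite F]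

section

variable {V W : Type} [AddCommGroup V] [Module F V] [AddCommGroup W] [Module F W] [Finite V] [Finite W]

/-- the lift from the orthogonal to the symplectic group -/
noncomputable def tS (θ : Wk F) (Φ : Fm false F V) (Ψ : Fm true F W) : (Ψ.G → ℂ) →ₗ[ℂ] Φ.G → ℂ := ko (θ Φ Ψ)

/-- its adjoint -/
noncomputable def tO (θ : Wk F) (Ψ : Fm true F W) (Φ : Fm false F V) : (Φ.G → ℂ) →ₗ[ℂ] Ψ.G → ℂ :=
  ko fun h g => starRingEnd ℂ (θ Φ Ψ g h)

end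

/-- **the properties of the kernel** -/
structure WkT (θ : Wk F) (χ : MulChar F ℂ) (od : Bool) : Prop where
  qd : Qd false χ
  chr : ∀ {V W : Type} [AddCommGroup V] [Module F V] [AddCommGroup W] [Module F W] [Finite V] [Finite W]
    (Φ : Fm false F V) (Ψ : Fm true F W), Par od (finrank F W) → IsCharacter (Φ.G × Ψ.G) fun p => θ Φ Ψ p.1 p.2
  res_S : ∀ {V V' W : Type} [AddCommGroup V] [Module F V] [AddCommGroup V'] [Module F V'] [AddCommGroup W] [Module F W]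
    [Finite V] [Finite V'] [Finite W] (Φ : Fm false F V) (Ψ : Fm true F W), Par od (finrank F W) → ∀ {k : ℕ}
    (Φ' : Fm false F V'), (Cor Φ' Φ 0 k).Nonempty → ∀ {Ws : ℕ → Type} [∀ i, AddCommGroup (Ws i)] [∀ i, Module F (Ws i)]
    [∀ i, Finite (Ws i)] (Ψs : ∀ i, Fm true F (Ws i)),
    (∀ i ≤ k, ∀ T, Ψ.TS T → finrank F T = i → (Cor Ψ (Ψs i) i 0).Nonempty) → ∀ f : Ψ.G → ℂ,
    opx χ Φ' Φ 0 k (tS θ Φ Ψ f) = ∑ i ∈ Finset.range (k + 1), tS θ Φ' (Ψs i) (op (Ψs i) Ψ 0 i f)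
  O_ind : ∀ {V V' W : Type} [AddCommGroup V] [Module F V] [AddCommGroup V'] [Module F V'] [AddCommGroup W] [Module F W]
    [Finite V] [Finite V'] [Finite W] (Φ : Fm false F V) (Ψ : Fm true F W), Par od (finrank F W) → ∀ {k : ℕ}
    (Φ' : Fm false F V'), (Cor Φ' Φ 0 k).Nonempty → ∀ {Ws : ℕ → Type} [∀ i, AddCommGroup (Ws i)] [∀ i, Module F (Ws i)]
    [∀ i, Finite (Ws i)] (Ψs : ∀ i, Fm true F (Ws i)),
    (∀ i ≤ k, ∀ T, Ψ.TS T → finrank F T = i → (Cor Ψ (Ψs i) i 0).Nonempty) → ∀ f : Φ'.G → ℂ,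
    tO θ Ψ Φ (opx χ Φ Φ' k 0 f) = ∑ i ∈ Finset.range (k + 1), op Ψ (Ψs i) i 0 (tO θ (Ψs i) Φ' f)
  res_O : ∀ {V W W' : Type} [AddCommGroup V] [Module F V] [AddCommGroup W] [Module F W] [AddCommGroup W'] [Module F W']
    [Finite V] [Finite W] [Finite W'] (Φ : Fm false F V) (Ψ : Fm true F W), Par od (finrank F W) → ∀ {k : ℕ}
    (Ψ' : Fm true F W'), (Cor Ψ' Ψ 0 k).Nonempty → ∀ {Vs : ℕ → Type} [∀ i, AddCommGroup (Vs i)] [∀ i, Module F (Vs i)]
    [∀ i, Finite (Vs i)] (Φs : ∀ i, Fm false F (Vs i)),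
    (∀ i ≤ k, ∀ E, Φ.TS E → finrank F E = i → (Cor Φ (Φs i) i 0).Nonempty) → ∀ f : Φ.G → ℂ,
    op Ψ' Ψ 0 k (tO θ Ψ Φ f) = ∑ i ∈ Finset.range (k + 1), tO θ Ψ' (Φs i) (opx χ (Φs i) Φ 0 i f)
  S_ind : ∀ {V W W' : Type} [AddCommGroup V] [Module F V] [AddCommGroup W] [Module F W] [AddCommGroup W'] [Module F W']
    [Finite V] [Finite W] [Finite W'] (Φ : Fm false F V) (Ψ : Fm true F W), Par od (finrank F W) → ∀ {k : ℕ}
    (Ψ' : Fm true F W'), (Cor Ψ' Ψ 0 k).Nonempty → ∀ {Vs : ℕ → Type} [∀ i, AddCommGroup (Vs i)] [∀ i, Module F (Vs i)]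
    [∀ i, Finite (Vs i)] (Φs : ∀ i, Fm false F (Vs i)),
    (∀ i ≤ k, ∀ E, Φ.TS E → finrank F E = i → (Cor Φ (Φs i) i 0).Nonempty) → ∀ f : Ψ'.G → ℂ,
    tS θ Φ Ψ (op Ψ Ψ' k 0 f) = ∑ i ∈ Finset.range (k + 1), opx χ Φ (Φs i) i 0 (tS θ (Φs i) Ψ' f)
  sp_two : ∀ {V V' W W₁ : Type} [AddCommGroup V] [Module F V] [AddCommGroup V'] [Module F V'] [AddCommGroup W] [Module F W]
    [AddCommGroup W₁] [Module F W₁] [Finite V] [Finite V'] [Finite W] [Finite W₁] {a b : ℕ} (Φ : Fm false F V)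
    (Φ' : Fm false F V') (Ψ : Fm true F W) (Ψ₁ : Fm true F W₁), Par od (finrank F W) → Par od (finrank F W₁) →
    finrank F W + finrank F W₁ = finrank F V + finrank F V' → ¬ WE Ψ Ψ₁ → finrank F V < a → finrank F V' < b →
    ∀ f : Φ'.G → ℂ, tS θ Φ Ψ (tO θ Ψ Φ' f) + tS θ Φ Ψ₁ (tO θ Ψ₁ Φ' f) =
      ∑ i ∈ Finset.range a, ∑ j ∈ Finset.range b, opx χ Φ Φ' i j f
  sp_one : ∀ {V V' W : Type} [AddCommGroup V] [Module F V] [AddCommGroup V'] [Module F V'] [AddCommGroup W] [Module F W]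
    [Finite V] [Finite V'] [Finite W] {a b : ℕ} (Φ : Fm false F V) (Φ' : Fm false F V') (Ψ : Fm true F W),
    Par od (finrank F W) → ∀ {T : Submodule F W}, Ψ.TS T → finrank F V + finrank F V' ≤ 2 * finrank F T →
    finrank F V < a → finrank F V' < b →
    ∀ f : Φ'.G → ℂ, tS θ Φ Ψ (tO θ Ψ Φ' f) = ∑ i ∈ Finset.range a, ∑ j ∈ Finset.range b, opx χ Φ Φ' i j f
  o_two : ∀ {V V₁ W W' : Type} [AddCommGroup V] [Module F V] [AddCommGroup V₁] [Module F V₁] [AddCommGroup W] [Module F W]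
    [AddCommGroup W'] [Module F W'] [Finite V] [Finite V₁] [Finite W] [Finite W'] {a b : ℕ} (Ψ : Fm true F W)
    (Ψ' : Fm true F W') (Φ : Fm false F V) (Φ₁ : Fm false F V₁), Par od (finrank F W) → Par od (finrank F W') →
    WE Ψ Ψ' → finrank F V + finrank F V₁ + 2 = finrank F W + finrank F W' → finrank F W < a → finrank F W' < b →
    ∀ f : Ψ'.G → ℂ, tO θ Ψ Φ (tS θ Φ Ψ' f) + sgM Ψ (tO θ Ψ Φ₁ (tS θ Φ₁ Ψ' (sgM Ψ' f))) =
      ∑ i ∈ Finset.range a, ∑ j ∈ Finset.range b, op Ψ Ψ' i j f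
  o_one : ∀ {V W W' : Type} [AddCommGroup V] [Module F V] [AddCommGroup W] [Module F W] [AddCommGroup W'] [Module F W']
    [Finite V] [Finite W] [Finite W'] {a b : ℕ} (Ψ : Fm true F W) (Ψ' : Fm true F W') (Φ : Fm false F V),
    Par od (finrank F W) → Par od (finrank F W') → WE Ψ Ψ' → finrank F W + finrank F W' ≤ finrank F V →
    finrank F W < a → finrank F W' < b →
    ∀ f : Ψ'.G → ℂ, tO θ Ψ Φ (tS θ Φ Ψ' f) = ∑ i ∈ Finset.range a, ∑ j ∈ Finset.range b, op Ψ Ψ' i j f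
  zero_o : ∀ {V W W' : Type} [AddCommGroup V] [Module F V] [AddCommGroup W] [Module F W] [AddCommGroup W'] [Module F W']
    [Finite V] [Finite W] [Finite W'] (Φ : Fm false F V) (Ψ : Fm true F W) (Ψ' : Fm true F W'),
    Par od (finrank F W) → Par od (finrank F W') → ¬ WE Ψ Ψ' → finrank F W + finrank F W' ≤ finrank F V →
    ∀ f : Ψ'.G → ℂ, tO θ Ψ Φ (tS θ Φ Ψ' f) = 0
  zero_sp : ∀ {V V' W : Type} [AddCommGroup V] [Module F V] [AddCommGroup V'] [Module F V'] [AddCommGroup W] [Module F W]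
    [Finite V] [Finite V'] [Finite W] (Φ : Fm false F V) (Φ' : Fm false F V') (Ψ : Fm true F W),
    Par od (finrank F W) → finrank F V + finrank F V' < finrank F W →
    ∀ f : Φ'.G → ℂ, tS θ Φ Ψ (sgM Ψ (tO θ Ψ Φ' f)) = 0
  one_V : ∀ {V W : Type} [AddCommGroup V] [Module F V] [AddCommGroup W] [Module F W] [Finite V] [Finite W]
    (Φ : Fm false F V) (Ψ : Fm true F W), Par od (finrank F W) → finrank F V = 0 → ∀ g h, θ Φ Ψ g h = 1
  one_W : ∀ {V W : Type} [AddCommGroup V] [Module F V] [AddCommGroup W] [Module F W] [Finite V] [Finite W]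
    (Φ : Fm false F V) (Ψ : Fm true F W), od = false → finrank F W = 0 → ∀ g h, θ Φ Ψ g h = 1

end Cfsg.Agent.PQ.Tw
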