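import Cfsg.Agent.PQ.Tw.Defs
import Cfsg.Agent.PQ.Tw.Abs

/-!
# PQ, towers: `TowOK` from the properties of the kernel (helper60)
-/

set_option autoImplicit false
set_option linter.unusedSectionVars false

namespace Cfsg.Agent.PQ.Tw

open Module Cfsg Cfsg.Agent.PQ.Mk Cfsg.Agent.PQ.G4 Cfsg.Agent.PQ.Th Finset Cfsg.Agent.OddOrderCharacters.VChar

attribute [local instance] GT.grp GT.fin

variable {F : Type} [Field F] [Finite F]

/-! ### one tower -/

section

variable {o : Bool} {V V' : Type} [AddCommGroup V] [Module F V] [AddCommGroup V'] [Module F V'] [Finite V] [Finite V']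
  {χ : MulChar F ℂ}

/-- the space is anisotropic -/
def Ix (Φ : Fm o F V) : Prop := ∀ n T, (Φ.hyp n).TS T → finrank F T ≤ n

theorem ix_small (Φ : Fm o F V) (h : finrank F V ≤ 1) : Ix Φ := fun n T hT => by
  obtain ⟨W, h1, -, Λ, h2, -⟩ := exists_reduction hT
  have := cor_dim ⟨Λ, h2⟩
  rw [finrank_hyp] at this
  omega

theorem we_zero (Φ : Fm o F V) (Φ' : Fm o F V') (h : finrank F V = 0) (h' : finrank F V' = 0) : WE Φ Φ' :=
  ⟨⊥, fun x hx y _ => by rw [(Submodule.mem_bot F).1 hx]; simp, fun x hx => by rw [(Submodule.mem_bot F).1 hx]; simp,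
    by rw [finrank_bot, h, h']⟩

theorem ix_two (Φ : Fm o F V) (Φ' : Fm o F V') (h : finrank F V = 2) (h' : finrank F V' = 0) (hn : ¬ WE Φ' Φ) : Ix Φ :=
  fun n T hT => by
  obtain ⟨W, h1, -, Λ, h2, -⟩ := exists_reduction hT
  have := cor_dim ⟨Λ, h2⟩
  rw [finrank_hyp] at this
  by_contra h3
  exact hn (((we_hyp n).trans (WE.of_cor ⟨Λ, h2⟩)).trans (we_zero _ Φ' (by omega) h')).symm

theorem Ix.empty {Φ : Fm o F V} (h : Ix Φ) {n' n i j : ℕ} (e : n' < i ∨ n < j ∨ n' + j ≠ n + i) (f : (Φ.hyp n).G → ℂ) :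
    opx χ (Φ.hyp n') (Φ.hyp n) i j f = 0 := by
  refine opx_empty (fun hc => ?_) f
  have h1 := cor_dim hc
  obtain ⟨Λ, h2, h3, h4⟩ := hc
  have h5 := h _ _ h2.ts_lf
  have h6 := h _ _ h2.ts_rt
  rw [finrank_hyp, finrank_hyp] at h1
  omega

theorem Ix.hs {Φ : Fm o F V} (h : Ix Φ) (n k : ℕ) :
    ∀ i ≤ k, ∀ T, (Φ.hyp n).TS T → finrank F T = i → (Cor (Φ.hyp n) (Φ.hyp (n - i)) i 0).Nonempty :=
  fun i _ T hT e => cor_tower (by have := h n T hT; omega)

theorem exists_ts (Φ : Fm o F V) (n : ℕ) : ∃ T, (Φ.hyp n).TS T ∧ finrank F T = n := by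
  obtain ⟨Λ, h1, -, h2⟩ := cor_hyp (Φ := Φ) n
  exact ⟨_, h1.ts_rt, h2⟩

end

/-! ### signs -/

section

variable {W W' : Type} [AddCommGroup W] [Module F W] [AddCommGroup W'] [Module F W'] [Finite W] [Finite W']

/-- multiplication by a power of the sign character -/
noncomputable def sg (s : Bool) (Ψ : Fm true F W) : (Ψ.G → ℂ) →ₗ[ℂ] Ψ.G → ℂ := if s then sgM Ψ else LinearMap.id

theorem sg_false (Ψ : Fm true F W) (f : Ψ.G → ℂ) : sg false Ψ f = f := rfl

theorem sg_true (Ψ : Fm true F W) (f : Ψ.G → ℂ) : sg true Ψ f = sgM Ψ f := rfl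

theorem sg_apply (s : Bool) (Ψ : Fm true F W) (f : Ψ.G → ℂ) (h : Ψ.G) :
    sg s Ψ f h = (if s then (sgn Ψ h : ℂ) else 1) * f h := by
  cases s
  · exact (one_mul _).symm
  · rfl

theorem sg_sg (s : Bool) (Ψ : Fm true F W) (f : Ψ.G → ℂ) : sg s Ψ (sg s Ψ f) = f := by
  cases s
  · rfl
  · exact sgM_sgM Ψ f

theorem sg_ne {s s' : Bool} (h : s ≠ s') (Ψ : Fm true F W) (f : Ψ.G → ℂ) : sg s Ψ (sg s' Ψ f) = sgM Ψ f := by
  cases s <;> cases s'
  · exact absurd rfl h
  · rfl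
  · rfl
  · exact absurd rfl h

theorem sg_op (s : Bool) (Ψ : Fm true F W) (Ψ' : Fm true F W') (i j : ℕ) (f : Ψ'.G → ℂ) :
    sg s Ψ (op Ψ Ψ' i j f) = op Ψ Ψ' i j (sg s Ψ' f) := by
  cases s
  · rfl
  · exact sgM_op Ψ Ψ' i j f

theorem sg_gen (s : Bool) (Ψ : Fm true F W) {f : Ψ.G → ℂ} (hf : IsGeneralizedCharacter Ψ.G f) :
    IsGeneralizedCharacter Ψ.G (sg s Ψ f) := by
  cases s
  · exact hf
  · exact sgM_gen Ψ hf

theorem sg_cls (s : Bool) (Ψ : Fm true F W) {f : Ψ.G → ℂ} (hf : IsClassFunction Ψ.G f) :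
    IsClassFunction Ψ.G (sg s Ψ f) := by
  cases s
  · exact hf
  · exact sgM_cls Ψ hf

theorem sg_adj (s : Bool) (Ψ : Fm true F W) (f φ : Ψ.G → ℂ) : classInner (sg s Ψ f) φ = classInner f (sg s Ψ φ) := by
  cases s
  · rfl
  · exact sgM_adj Ψ f φ

theorem sg_one (s : Bool) (Ψ : Fm true F W) (h : finrank F W = 0) : sg s Ψ 1 = 1 := by
  have : Subsingleton W := Module.finrank_zero_iff.1 h
  funext x
  have hx : x = 1 := Subtype.ext (LinearEquiv.ext fun _ => Subsingleton.elim _ _)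
  rw [sg_apply, hx, map_one]
  simp

theorem ko_one {A B : Type} [Fintype B] [Nonempty B] {κ : A → B → ℂ} (h : ∀ a b, κ a b = 1) : ko κ 1 = 1 := by
  funext a
  rw [ko_apply]
  simp [h]

end

/-! ### the kernel -/

section

variable {θ : Wk F} {χ : MulChar F ℂ} {od : Bool} {V W : Type} [AddCommGroup V] [Module F V] [AddCommGroup W] [Module F W]
  [Finite V] [Finite W] (h : WkT θ χ od) (Φ : Fm false F V) (Ψ : Fm true F W) (hW : Par od (finrank F W))

include h hW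

theorem WkT.conj (g x : Φ.G) (y z : Ψ.G) : θ Φ Ψ (x * g * x⁻¹) (z * y * z⁻¹) = θ Φ Ψ g y :=
  gen_isClassFunction (gen_of_char (h.chr Φ Ψ hW)) (g, y) (x, z)

theorem WkT.S_cls (f : Ψ.G → ℂ) : IsClassFunction Φ.G (tS θ Φ Ψ f) :=
  ko_cls (fun a x b => by simpa using h.conj Φ Ψ hW a x b 1) f

theorem WkT.O_cls (f : Φ.G → ℂ) : IsClassFunction Ψ.G (tO θ Ψ Φ f) :=
  ko_cls (fun a x b => congrArg (starRingEnd ℂ) (by simpa using h.conj Φ Ψ hW b 1 a x)) f

theorem WkT.S_gen {f : Ψ.G → ℂ} (hf : IsGeneralizedCharacter Ψ.G f) : IsGeneralizedCharacter Φ.G (tS θ Φ Ψ f) :=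
  ko_gen (gen_of_char (h.chr Φ Ψ hW)) hf

theorem WkT.O_gen {f : Φ.G → ℂ} (hf : IsGeneralizedCharacter Φ.G f) : IsGeneralizedCharacter Ψ.G (tO θ Ψ Φ f) :=
  ko_gen (gen_comp (MulEquiv.prodComm : Ψ.G × Φ.G ≃* Φ.G × Ψ.G).toMonoidHom
    (gen_conjFun (gen_of_char (h.chr Φ Ψ hW)))) hf

theorem WkT.O_one (hV : finrank F V = 0) : tO θ Ψ Φ 1 = 1 := ko_one fun a b => (congrArg (starRingEnd ℂ) (h.one_V Φ Ψ hW hV b a)).trans (map_one _)

theorem WkT.S_one (hV : finrank F V = 0) : tS θ Φ Ψ 1 = 1 := ko_one fun a b => h.one_V Φ Ψ hW hV a b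

end

/-! ### the four towers -/

variable (N : Kn F) (θ : Wk F) (χ : MulChar F ℂ)

/-- the levels -/
def lv : Bool ⊕ Bool → ℕ → Kn.Λ
  | .inl s, n => .inl (s, n)
  | .inr t, n => .inr (t, n)

/-- the lowest rank -/
def off : Bool ⊕ Bool → ℕ
  | .inl _ => 0
  | .inr t => N.a t / 2

/-- the defect -/
def dA : Bool ⊕ Bool → ZMod 4
  | .inl s => Kn.dd s (!N.od)
  | .inr t => Kn.dd t N.od

/-- the Harish-Chandra operators -/
noncomputable def hA (i j : ℕ) : ∀ l' l : Kn.Λ, (N.G l → ℂ) →ₗ[ℂ] N.G l' → ℂ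
  | .inl y', .inl y => opx χ (N.Φ.hyp y'.2) (N.Φ.hyp y.2) i j
  | .inr z', .inr z => opx 1 ((N.Ψ z'.1).hyp z'.2) ((N.Ψ z.1).hyp z.2) i j
  | .inl _, .inr _ => 0
  | .inr _, .inl _ => 0

/-- the theta operators -/
noncomputable def tA : ∀ l' l : Kn.Λ, (N.G l → ℂ) →ₗ[ℂ] N.G l' → ℂ
  | .inl y, .inr z => tS θ (N.Φ.hyp y.2) ((N.Ψ z.1).hyp z.2) ∘ₗ sg y.1 ((N.Ψ z.1).hyp z.2)
  | .inr z, .inl y => sg y.1 ((N.Ψ z.1).hyp z.2) ∘ₗ tO θ ((N.Ψ z.1).hyp z.2) (N.Φ.hyp y.2)
  | .inl _, .inl _ => 0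
  | .inr _, .inr _ => 0

theorem realised : True := by
  have := @lv.eq_def; have := @off.eq_def; have := @dA.eq_def; have := @hA.eq_def; have := @tA.eq_def; trivial

theorem tA_eq (l' l : N.gt.Λ) (f : N.gt.G l → ℂ) (g' : N.gt.G l') :
    tA N θ l' l f g' = (Fintype.card (N.gt.G l) : ℂ)⁻¹ * ∑ g, N.Θ θ ⟨l', g'⟩ ⟨l, g⟩ * f g := by
  rcases l' with y' | z' <;> rcases l with y | z
  · exact ((congrArg (HMul.hMul _) (sum_eq_zero fun x _ => zero_mul _)).trans (mul_zero _)).symm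
  · refine (ko_apply _ _ _).trans (congrArg (HMul.hMul _) (sum_congr rfl fun x _ => ?_))
    exact (congrArg (HMul.hMul _) (sg_apply _ _ _ _)).trans ((mul_left_comm _ _ _).trans (mul_assoc _ _ _).symm)
  · refine (sg_apply _ _ _ _).trans ((congrArg (HMul.hMul _) (ko_apply _ _ _)).trans ((mul_left_comm _ _ _).trans
      (congrArg (HMul.hMul _) ((mul_sum _ _ _).trans (sum_congr rfl fun x _ => (mul_assoc _ _ _).symm)))))
  · exact ((congrArg (HMul.hMul _) (sum_eq_zero fun x _ => zero_mul _)).trans (mul_zero _)).symm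

/-- the parity of the orthogonal spaces -/
def δ : ℕ := if N.od then 1 else 0

theorem δ_le : δ N ≤ 1 := by unfold δ; split_ifs <;> omega

theorem a_eq (t : Bool) : N.a t = 2 * (N.a t / 2) + δ N := by
  have h0 := N.a0
  have h1 := N.a1
  unfold δ
  cases t <;> split_ifs at h0 h1 ⊢ <;> omega

theorem a_ne {t t' : Bool} (h : t ≠ t') : N.a t / 2 + N.a t' / 2 + δ N = 1 := by
  have h0 := N.a0
  have h1 := N.a1
  unfold δ
  cases t <;> cases t' <;> first | exact absurd rfl h | (split_ifs at h0 h1 ⊢ <;> omega)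

theorem a_false : N.a false / 2 = 0 := by
  have h0 := N.a0
  split_ifs at h0 <;> omega

theorem od_dd : ∀ s e, Od (Kn.dd s e) ↔ e = true := by unfold Od; decide

theorem dz_S (s : Bool) : dz (dA N (.inl s)) = δ N := by
  rw [dz, δ, dA]
  simp only [od_dd]
  cases N.od <;> simp

theorem dz_O (t : Bool) : dz (dA N (.inr t)) + δ N = 1 := by
  rw [dz, δ, dA]
  simp only [od_dd]
  cases N.od <;> simp

theorem dim_S (n : ℕ) : finrank F ((Fin 0 → F) × (Fin n → F) × (Fin n → F)) = 2 * n := by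
  rw [finrank_hyp]; simp

theorem dim_O (t : Bool) (n : ℕ) : finrank F ((Fin (N.a t) → F) × (Fin n → F) × (Fin n → F)) = N.a t + 2 * n := by
  rw [finrank_hyp]; simp

theorem par_O (t : Bool) (n : ℕ) : Par N.od (finrank F ((Fin (N.a t) → F) × (Fin n → F) × (Fin n → F))) := by
  have h := a_eq N t
  rw [dim_O, Par, Nat.odd_iff]
  unfold δ at h
  split_ifs at h with h1
  · exact iff_of_true (by omega) h1
  · exact iff_of_false (by omega) h1

theorem ix_S : Ix N.Φ := ix_small _ (by simp)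

theorem ix_O (t : Bool) : Ix (N.Ψ t) := by
  have h0 := N.a0
  have h1 := N.a1
  cases t
  · exact ix_small _ (by split_ifs at h0 <;> simp [h0])
  · split_ifs at h0 h1
    · exact ix_small _ (by simp [h1])
    · exact ix_two _ (N.Ψ false) (by simp [h1]) (by simp [h0]) N.nwe

theorem not_we {t t' : Bool} (h : t ≠ t') (n n' : ℕ) : ¬ WE ((N.Ψ t).hyp n) ((N.Ψ t').hyp n') := fun e => by
  have e' : WE (N.Ψ t) (N.Ψ t') := ((we_hyp n).trans e).trans (we_hyp n').symm
  cases t <;> cases t'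
  · exact h rfl
  · exact N.nwe e'
  · exact N.nwe e'.symm
  · exact h rfl

theorem dd_succ : ∀ s s' e, Kn.dd s e + 1 ≠ Kn.dd s' e := by decide

theorem dd_ne : ∀ s e t t' e', Kn.dd s e + 1 = Kn.dd t e' → Kn.dd t' e' + 1 = Kn.dd s e → t ≠ t' := by decide

theorem dd_ne' : ∀ s s' e t e', Kn.dd s e + 1 = Kn.dd t e' → Kn.dd t e' + 1 = Kn.dd s' e → s ≠ s' := by decide

theorem dd_sur : ∀ (e : Bool) (D : ZMod 4), (∃ s, Kn.dd s (!e) = D) ∨ ∃ t, Kn.dd t e = D := by decide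

variable {θ χ}

section

variable (h : WkT θ χ N.od)

include h

theorem ind_S (s t : Bool) (n' n k : ℕ) (f : ((N.Ψ t).hyp n).G → ℂ) :
    tS θ (N.Φ.hyp n') _ (sg s _ (opx 1 ((N.Ψ t).hyp (n + k)) ((N.Ψ t).hyp n) k 0 f)) =
      ∑ i ∈ range (k + 1), opx χ (N.Φ.hyp n') (N.Φ.hyp (n' - i)) i 0 (tS θ _ _ (sg s ((N.Ψ t).hyp n) f)) := by
  rw [opx_one, sg_op]
  exact h.S_ind _ _ (par_O N _ _) _ (cor_tower' rfl) (fun i => N.Φ.hyp (n' - i)) ((ix_S N).hs n' k) _

theorem ind_O (s t : Bool) (n' n k : ℕ) (f : (N.Φ.hyp n).G → ℂ) :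
    sg s _ (tO θ ((N.Ψ t).hyp n') _ (opx χ (N.Φ.hyp (n + k)) (N.Φ.hyp n) k 0 f)) =
      ∑ i ∈ range (k + 1), opx 1 ((N.Ψ t).hyp n') ((N.Ψ t).hyp (n' - i)) i 0 (sg s _ (tO θ _ (N.Φ.hyp n) f)) := by
  rw [h.O_ind _ _ (par_O N _ _) _ (cor_tower' rfl) (fun i => (N.Ψ t).hyp (n' - i)) ((ix_O N t).hs n' k), map_sum]
  exact sum_congr rfl fun i _ => by rw [sg_op, opx_one]

theorem rs_S (s t : Bool) (n' n k : ℕ) (f : ((N.Ψ t).hyp n).G → ℂ) :
    opx χ (N.Φ.hyp n') (N.Φ.hyp (n' + k)) 0 k (tS θ _ _ (sg s ((N.Ψ t).hyp n) f)) =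
      ∑ i ∈ range (k + 1), tS θ _ _ (sg s _ (opx 1 ((N.Ψ t).hyp (n - i)) ((N.Ψ t).hyp n) 0 i f)) := by
  rw [h.res_S _ _ (par_O N _ _) _ (cor_tower' rfl) (fun i => (N.Ψ t).hyp (n - i)) ((ix_O N t).hs n k)]
  exact sum_congr rfl fun i _ => by rw [opx_one, sg_op]

theorem rs_O (s t : Bool) (n' n k : ℕ) (f : (N.Φ.hyp n).G → ℂ) :
    opx 1 ((N.Ψ t).hyp n') ((N.Ψ t).hyp (n' + k)) 0 k (sg s _ (tO θ _ (N.Φ.hyp n) f)) =
      ∑ i ∈ range (k + 1), sg s _ (tO θ _ _ (opx χ (N.Φ.hyp (n - i)) (N.Φ.hyp n) 0 i f)) := by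
  rw [opx_one, ← sg_op, h.res_O _ _ (par_O N _ _) _ (cor_tower' rfl) (fun i => N.Φ.hyp (n - i)) ((ix_S N).hs n k),
    map_sum]

theorem two_S (s : Bool) {t1 t2 : Bool} (hne : t1 ≠ t2) {n' n m m' M : ℕ} (f : (N.Φ.hyp n).G → ℂ)
    (e : m + N.a t1 / 2 + (m' + N.a t2 / 2) + δ N = n + n') (h1 : 2 * n' < M) (h2 : 2 * n < M) :
    tS θ (N.Φ.hyp n') _ (sg s _ (sg s _ (tO θ ((N.Ψ t1).hyp m) (N.Φ.hyp n) f))) +
      tS θ (N.Φ.hyp n') _ (sg s _ (sg s _ (tO θ ((N.Ψ t2).hyp m') (N.Φ.hyp n) f))) =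
      ∑ i ∈ range M, ∑ j ∈ range M, opx χ (N.Φ.hyp n') (N.Φ.hyp n) i j f := by
  have h3 := a_eq N t1
  have h4 := a_eq N t2
  rw [sg_sg, sg_sg]
  exact h.sp_two _ _ _ _ (par_O N _ _) (par_O N _ _) (by rw [dim_O, dim_O, dim_S, dim_S]; omega) (not_we N hne _ _)
    (by rw [dim_S]; omega) (by rw [dim_S]; omega) f

theorem two_O (t : Bool) {s1 s2 : Bool} (hne : s1 ≠ s2) {n' n m m' M : ℕ} (f : ((N.Ψ t).hyp n).G → ℂ)
    (e : m + m' + 1 = n + n' + N.a t) (h1 : N.a t + 2 * n' < M) (h2 : N.a t + 2 * n < M) :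
    sg s1 _ (tO θ ((N.Ψ t).hyp n') _ (tS θ (N.Φ.hyp m) _ (sg s1 ((N.Ψ t).hyp n) f))) +
      sg s2 _ (tO θ ((N.Ψ t).hyp n') _ (tS θ (N.Φ.hyp m') _ (sg s2 ((N.Ψ t).hyp n) f))) =
      ∑ i ∈ range M, ∑ j ∈ range M, opx 1 ((N.Ψ t).hyp n') ((N.Ψ t).hyp n) i j f := by
  simp only [opx_one]
  cases s1 <;> cases s2
  · exact absurd rfl hne
  · exact h.o_two ((N.Ψ t).hyp n') ((N.Ψ t).hyp n) (N.Φ.hyp m) (N.Φ.hyp m') (par_O N _ _) (par_O N _ _) (we_tower _ _)
      (by rw [dim_O, dim_O, dim_S, dim_S]; omega) (by rw [dim_O]; omega) (by rw [dim_O]; omega) f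
  · rw [add_comm]
    exact h.o_two ((N.Ψ t).hyp n') ((N.Ψ t).hyp n) (N.Φ.hyp m') (N.Φ.hyp m) (par_O N _ _) (par_O N _ _) (we_tower _ _)
      (by rw [dim_O, dim_O, dim_S, dim_S]; omega) (by rw [dim_O]; omega) (by rw [dim_O]; omega) f
  · exact absurd rfl hne

theorem one_S (s t : Bool) {n' n m M : ℕ} (f : (N.Φ.hyp n).G → ℂ) (e : n + n' ≤ m) (h1 : 2 * n' < M) (h2 : 2 * n < M) :
    tS θ (N.Φ.hyp n') _ (sg s _ (sg s _ (tO θ ((N.Ψ t).hyp m) (N.Φ.hyp n) f))) =
      ∑ i ∈ range M, ∑ j ∈ range M, opx χ (N.Φ.hyp n') (N.Φ.hyp n) i j f := by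
  obtain ⟨T, hT, hd⟩ := exists_ts (N.Ψ t) m
  rw [sg_sg]
  exact h.sp_one _ _ _ (par_O N _ _) hT (by rw [dim_S, dim_S]; omega) (by rw [dim_S]; omega) (by rw [dim_S]; omega) f

theorem one_O (s t : Bool) {n' n m M : ℕ} (f : ((N.Ψ t).hyp n).G → ℂ) (e : n + n' + N.a t ≤ m)
    (h1 : N.a t + 2 * n' < M) (h2 : N.a t + 2 * n < M) :
    sg s _ (tO θ ((N.Ψ t).hyp n') _ (tS θ (N.Φ.hyp m) _ (sg s ((N.Ψ t).hyp n) f))) =
      ∑ i ∈ range M, ∑ j ∈ range M, opx 1 ((N.Ψ t).hyp n') ((N.Ψ t).hyp n) i j f := by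
  rw [h.o_one (a := M) (b := M) _ _ _ (par_O N _ _) (par_O N _ _) (we_tower _ _)
    (by rw [dim_O, dim_O, dim_S]; omega) (by rw [dim_O]; omega) (by rw [dim_O]; omega), map_sum]
  refine sum_congr rfl fun i _ => ?_
  rw [map_sum]
  exact sum_congr rfl fun j _ => by rw [sg_op, sg_sg, opx_one]

theorem five_S {s s' : Bool} (hne : s ≠ s') (t : Bool) {n' n m : ℕ} (f : (N.Φ.hyp n).G → ℂ)
    (e : 2 * n + 2 * n' < N.a t + 2 * m) :
    tS θ (N.Φ.hyp n') _ (sg s' _ (sg s _ (tO θ ((N.Ψ t).hyp m) (N.Φ.hyp n) f))) = 0 := by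
  rw [sg_ne hne.symm]
  exact h.zero_sp _ _ _ (par_O N _ _) (by rw [dim_O, dim_S, dim_S]; omega) f

theorem five_O (s : Bool) {t t' : Bool} (hne : t ≠ t') {n' n m : ℕ} (f : ((N.Ψ t).hyp n).G → ℂ)
    (e : N.a t + 2 * n + (N.a t' + 2 * n') ≤ 2 * m) :
    sg s _ (tO θ ((N.Ψ t').hyp n') _ (tS θ (N.Φ.hyp m) _ (sg s ((N.Ψ t).hyp n) f))) = 0 := by
  rw [h.zero_o _ _ _ (par_O N _ _) (par_O N _ _) (not_we N hne.symm _ _) (by rw [dim_O, dim_O, dim_S]; omega), map_zero]

end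

/-- the Harish-Chandra family -/
noncomputable def hF (χ : MulChar F ℂ) (i j : ℕ) : Fam N.gt where
  A := hA N χ i j
  cls l' l f _ := by
    rcases l' with y' | z' <;> rcases l with y | z
    · exact opx_cls i j f
    · exact fun _ _ => rfl
    · exact fun _ _ => rfl
    · exact opx_cls i j f

/-- the theta family -/
noncomputable def tF (h : WkT θ χ N.od) : Fam N.gt where
  A := tA N θ
  cls l' l f _ := by
    rcases l' with y' | z' <;> rcases l with y | z
    · exact fun _ _ => rfl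
    · exact h.S_cls _ _ (par_O N _ _) _
    · exact sg_cls _ _ (h.O_cls _ _ (par_O N _ _) _)
    · exact fun _ _ => rfl

theorem gz (l : N.gt.Λ) : IsGeneralizedCharacter (N.gt.G l) 0 := gen_zero

theorem iz (l' l : N.gt.Λ) (f : N.gt.G l → ℂ) (φ : N.gt.G l' → ℂ) : classInner 0 φ = classInner f 0 :=
  (inner_zero_left _).trans (inner_zero_right _).symm

/-- **the four towers** -/
noncomputable def ts (h : WkT θ χ N.od) : TS N.gt where
  A := Bool ⊕ Bool
  lv := lv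
  off := off N
  dA := dA N
  dm a n := 2 * off N a + 1 + 2 * n
  rk_lv a n := by cases a <;> rfl
  df_lv a n := by cases a <;> rfl
  onto l := by
    rcases l with ⟨s, n⟩ | ⟨t, n⟩
    · exact ⟨.inl s, n, rfl⟩
    · exact ⟨.inr t, n, rfl⟩
  inj a b e := by
    rcases a with s | s <;> rcases b with t | t
    · rw [(Kn.dd_inj _ _ _ _ e).1]
    · exact absurd (Kn.dd_inj _ _ _ _ e).2 (by simp)
    · exact absurd (Kn.dd_inj _ _ _ _ e).2 (by simp)
    · rw [(Kn.dd_inj _ _ _ _ e).1]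
  sur D := by
    rcases dd_sur N.od D with ⟨s, e⟩ | ⟨t, e⟩
    · exact ⟨.inl s, e⟩
    · exact ⟨.inr t, e⟩
  hop := hF N χ
  top := tF N h
  hop_gen i j l' l f hf := by
    rcases l' with y' | z' <;> rcases l with y | z
    · exact opx_gen i j hf
    · exact gz N _
    · exact gz N _
    · exact opx_gen i j hf
  top_gen l' l f hf := by
    rcases l' with y' | z' <;> rcases l with y | z
    · exact gz N _
    · exact h.S_gen _ _ (par_O N _ _) (sg_gen _ _ hf)
    · exact sg_gen _ _ (h.O_gen _ _ (par_O N _ _) hf)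
    · exact gz N _
  hop_adj i j l' l f φ := by
    rcases l' with y' | z' <;> rcases l with y | z
    · exact opx_adj h.qd i j f φ
    · exact iz N _ _ f φ
    · exact iz N _ _ f φ
    · exact opx_adj Qd.one i j f φ
  top_adj l' l f φ := by
    rcases l' with y' | z' <;> rcases l with y | z
    · exact iz N _ _ f φ
    · exact (ko_adj (θ (N.Φ.hyp y'.2) ((N.Ψ z.1).hyp z.2)) _ _).trans (sg_adj _ _ _ _)
    · exact (sg_adj _ _ _ _).trans (ko_adj' (θ (N.Φ.hyp y.2) ((N.Ψ z'.1).hyp z'.2)) _ _)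
    · exact iz N _ _ f φ
  hop_id l f hf := by
    rcases l with y | z
    · exact opx_id h.qd hf
    · exact opx_id Qd.one hf
  empty a n' n i j f e := by
    rcases a with s | t
    · exact (ix_S N).empty e f
    · exact (ix_O N t).empty e f
  mul a n' m n i j f e := by
    rcases a with s | t
    · exact opx_mul h.qd (cor_tower e) j f
    · exact opx_mul Qd.one (cor_tower e) j f
  mackey a n' m n k l f e e' := by
    rcases a with s | t
    · exact mackeyx h.qd (cor_tower' e) (cor_tower e') f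
    · exact mackeyx Qd.one (cor_tower' e) (cor_tower e') f
  par l' l f e := by
    rcases l' with y' | z' <;> rcases l with y | z
    · rfl
    · exact absurd ((od_dd _ _).symm.trans (e.trans (od_dd _ _))) (by simp)
    · exact absurd ((od_dd _ _).symm.trans (e.trans (od_dd _ _))) (by simp)
    · rfl
  ind a b n' n k f e := by
    rcases a with s | t <;> rcases b with s' | t'
    · exact absurd e (dd_succ _ _ _)
    · exact ind_S N h s t' n' n k f
    · exact ind_O N h s' t n' n k f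
    · exact absurd e (dd_succ _ _ _)
  res a b n' n k f e := by
    rcases a with s | t <;> rcases b with s' | t'
    · exact absurd e (dd_succ _ _ _)
    · exact rs_S N h s t' n' n k f
    · exact rs_O N h s' t n' n k f
    · exact absurd e (dd_succ _ _ _)
  two a b c n' n m m' M f e1 e2 e h1 h2 := by
    rcases a with s | t <;> rcases b with s1 | t1 <;> rcases c with s2 | t2 <;>
      first | exact absurd e1 (dd_succ _ _ _) | exact absurd e2 (dd_succ _ _ _) | skip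
    · rw [dz_S] at e
      simp only [off] at e h1 h2
      exact two_S N h s (dd_ne _ _ _ _ _ e1 e2) f (by omega) (by omega) (by omega)
    · have h3 := a_eq N t
      have h4 := dz_O N t
      have h5 := δ_le N
      simp only [off] at e h1 h2
      exact two_O N h t (dd_ne _ _ _ _ _ e1 e2) f (by omega) (by omega) (by omega)
  one a b c n' n m M f e0 e h1 h2 := by
    rcases a with s | t <;> rcases b with s1 | t1 <;> rcases c with s2 | t2 <;>
      first
        | exact (e0.elim (fun e => dd_succ _ _ _ e.1) fun e => dd_succ _ _ _ e.2).elim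
        | exact (e0.elim (fun e => dd_succ _ _ _ e.2) fun e => dd_succ _ _ _ e.1).elim
        | exact (e0.elim (fun e => dd_succ _ _ _ e.1) fun e => dd_succ _ _ _ e.1).elim
        | exact (e0.elim (fun e => dd_succ _ _ _ e.2) fun e => dd_succ _ _ _ e.2).elim
        | skip
    · have hne : t1 ≠ t2 := e0.elim (fun e => dd_ne _ _ _ _ _ e.1 e.2) fun e => (dd_ne _ _ _ _ _ e.1 e.2).symm
      have h3 := a_ne N hne
      rw [dz_S] at e
      simp only [off] at e h1 h2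
      exact one_S N h s t1 f (by omega) (by omega) (by omega)
    · have h3 := a_eq N t
      have h4 := dz_O N t
      have h5 := δ_le N
      simp only [off] at e h1 h2
      exact one_O N h s1 t f (by omega) (by omega) (by omega)
  small a b c e1 e2 := by
    rcases a with s | t <;> rcases b with s1 | t1 <;> rcases c with s2 | t2 <;>
      first | exact absurd e1 (dd_succ _ _ _) | exact absurd e2 (dd_succ _ _ _) | skip
    · rw [dz_S]
      exact (a_ne N (dd_ne _ _ _ _ _ e1 e2)).le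
    · have h4 := dz_O N t
      simp only [off]
      omega
  five a b c n' n m f ha e1 e2 e := by
    rcases a with s | t <;> rcases b with s1 | t1 <;> rcases c with s2 | t2 <;>
      first | exact absurd e1 (dd_succ _ _ _) | exact absurd e2 (dd_succ _ _ _) | skip
    · have h3 := a_eq N t1
      have h4 := dz_S N s
      rw [dz, if_neg ha] at h4
      simp only [off] at e
      exact five_S N h (dd_ne' _ _ _ _ _ e1 e2) t1 f (by omega)
    · have h3 := a_eq N t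
      have h3' := a_eq N t2
      have h4 := dz_O N t
      rw [dz, if_neg ha] at h4
      simp only [off] at e
      exact five_O N h s1 (dd_ne' _ _ _ _ _ e1 e2) f (by omega)

variable (h : WkT θ χ N.od)

include h

theorem v_OS (t : Bool) (n : ℕ) : tA N θ (.inr (t, n)) (.inl (false, 0)) 1 = 1 :=
  h.O_one _ _ (par_O N _ _) (dim_S 0)

theorem v_SO (t : Bool) (n : ℕ) : tA N θ (.inl (false, 0)) (.inr (t, n)) 1 = 1 :=
  h.S_one _ _ (par_O N _ _) (dim_S 0)

theorem vc_even (hod : N.od = false) : Vc (ts N h) (.inl false) (.inr false) where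
  d₀ := by change Kn.dd false (!N.od) = 1; rw [hod]; rfl
  d₁ := by change Kn.dd false N.od = 0; rw [hod]; rfl
  o₀ := rfl
  o₁ := a_false N
  v1 := v_OS N h false 0
  v2 b e e' := by
    exfalso
    rcases b with s | t
    · change Kn.dd s (!N.od) = 2 at e
      rw [hod] at e
      revert e
      cases s <;> decide
    · change Kn.dd t N.od = 2 at e
      change N.a t / 2 = 0 at e'
      have h1 := N.a1
      rw [hod] at e h1
      cases t
      · exact absurd e (by decide)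
      · simp [h1] at e'
  v3 a n e := by
    rcases a with s | t
    · have h0 : finrank F ((Fin (N.a false) → F) × (Fin 0 → F) × (Fin 0 → F)) = 0 := by
        have h1 := N.a0
        rw [hod] at h1
        rw [dim_O, h1]
        rfl
      change tS θ (N.Φ.hyp n) _ (sg s ((N.Ψ false).hyp 0) 1) = 1
      rw [sg_one _ _ h0]
      exact ko_one fun a b => h.one_W _ _ hod h0 a b
    · exact absurd ((od_dd _ _).1 e) (by simp [hod])

theorem vc_odd (hod : N.od = true) : Vc (ts N h) (.inr false) (.inl false) where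
  d₀ := by change Kn.dd false N.od = 1; rw [hod]; rfl
  d₁ := by change Kn.dd false (!N.od) = 0; rw [hod]; rfl
  o₀ := a_false N
  o₁ := rfl
  v1 := v_SO N h false 0
  v2 b e _ := by
    rcases b with s | t
    · change Kn.dd s (!N.od) = 2 at e
      rw [hod] at e
      cases s
      · exact absurd e (by decide)
      · have h1 := N.a0
        rw [hod] at h1
        have h2 := h.zero_sp (N.Φ.hyp 0) (N.Φ.hyp 0) ((N.Ψ false).hyp 0) (par_O N _ _)
          (by rw [dim_O, dim_S, h1]; simp) 1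
        rw [h.O_one _ _ (par_O N _ _) (dim_S 0)] at h2
        exact h2
    · change Kn.dd t N.od = 2 at e
      rw [hod] at e
      exact absurd e (by cases t <;> decide)
  v3 a n e := by
    rcases a with s | t
    · exact absurd ((od_dd _ _).1 e) (by simp [hod])
    · exact v_OS N h t n

/-- **box TOW** -/
theorem tow_of : N.TowOK θ := by
  intro H hH
  have key : ∀ C : Cyc H, (∀ e, C.T e = (ts N h).R e + (ts N h).L e) → KerT C (N.Θ θ) := fun C hC e f y => by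
    rw [hC]
    refine ((ts N h).T_apply e f y).trans (finsum_congr fun l => ?_)
    split_ifs
    · exact tA_eq N θ _ _ _ _
    · rfl
  rcases Bool.eq_false_or_eq_true N.od with hod | hod
  · obtain ⟨C, h1, h2, -⟩ := (ts N h).exists_cyc hH (vc_odd N h hod)
    exact ⟨C, key C h1, h2, fun e => absurd (hod.symm.trans e) (by simp)⟩
  · obtain ⟨C, h1, h2, h3⟩ := (ts N h).exists_cyc hH (vc_even N h hod)
    refine ⟨C, key C h1, h2, fun _ => h3 fun b n hb => ?_⟩
    rcases b with s | t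
    · exact absurd ((od_dd _ _).2 (by simp [hod])) hb
    · exact v_OS N h t n

end Cfsg.Agent.PQ.Tw
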