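import Cfsg.Agent.PQ.Th.Grp
import Cfsg.Agent.PQ.Rel.Bas

/-!
# PQ, towers: operators on the class functions of a tower of groups (helper60)

`Fam T` : a family of linear maps between the functions on the groups; `A.op d s` : the operator on `T.V` which shifts
the rank by `d` and the defect by `s`.
-/

set_option autoImplicit false
set_option linter.unusedSectionVars false

namespace Cfsg.Agent.PQ.Tw

open Module Cfsg Cfsg.Agent.PQ.Th
open scoped ComplexConjugate

attribute [local instance] GT.grp GT.fin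

variable {T : GT}

theorem res_ext {u v : T.V} (h : ∀ l, T.res u l = T.res v l) : u = v :=
  Subtype.ext (funext fun x => congrFun (h x.1) x.2)

theorem res_add (u v : T.V) (l : T.Λ) : T.res (u + v) l = T.res u l + T.res v l := rfl

theorem res_smul (c : ℂ) (u : T.V) (l : T.Λ) : T.res (c • u) l = c • T.res u l := rfl

theorem res_zero (l : T.Λ) : T.res 0 l = 0 := rfl

theorem res_sum {α : Type} (s : Finset α) (u : α → T.V) (l : T.Λ) : T.res (∑ i ∈ s, u i) l = ∑ i ∈ s, T.res (u i) l := by
  classical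
  induction s using Finset.induction_on with
  | empty => rfl
  | insert a s ha ih => rw [Finset.sum_insert ha, Finset.sum_insert ha, res_add, ih]

theorem res_cls (u : T.V) (l : T.Λ) : IsClassFunction (T.G l) (T.res u l) := u.2.1 l

/-- a family of linear maps which preserve the class functions -/
structure Fam (T : GT) where
  A : ∀ l' l, (T.G l → ℂ) →ₗ[ℂ] T.G l' → ℂ
  cls : ∀ l' l f, IsClassFunction (T.G l) f → IsClassFunction (T.G l') (A l' l f)

/-- `l'` has rank `+ d` and defect `+ s` -/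
def Rl (T : GT) (d : ℤ) (s : ZMod 4) (l l' : T.Λ) : Prop := (T.rk l : ℤ) + d = T.rk l' ∧ T.df l + s = T.df l'

theorem Rl.uniq {d : ℤ} {s : ZMod 4} {l m l' : T.Λ} (h : Rl T d s l l') (h' : Rl T d s m l') : l = m :=
  T.inj l m (by have := h.1; have := h'.1; omega) (add_right_cancel (h.2.trans h'.2.symm))

theorem Rl.symm {d : ℤ} {s : ZMod 4} {l l' : T.Λ} (h : Rl T d s l l') : Rl T (-d) (-s) l' l :=
  ⟨by have := h.1; omega, by rw [← h.2, add_neg_cancel_right]⟩

namespace Fam

variable (A : Fam T) (d : ℤ) (s : ZMod 4)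

open Classical in
/-- the components of the operator -/
noncomputable def cp (l' : T.Λ) : T.V →ₗ[ℂ] T.G l' → ℂ where
  toFun f := if h : ∃ l, Rl T d s l l' then A.A l' h.choose (T.res f h.choose) else 0
  map_add' f g := by
    split_ifs
    · rw [res_add, map_add]
    · rw [add_zero]
  map_smul' c f := by
    split_ifs
    · rw [res_smul, map_smul, RingHom.id_apply]
    · rw [smul_zero]

variable {d s}

theorem cp_of {l l' : T.Λ} (h : Rl T d s l l') (f : T.V) : A.cp d s l' f = A.A l' l (T.res f l) := by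
  have h1 : ∃ l, Rl T d s l l' := ⟨l, h⟩
  have h2 : ∀ m, m = l → A.A l' m (T.res f m) = A.A l' l (T.res f l) := fun m e => by rw [e]
  exact (dif_pos h1).trans (h2 _ (h1.choose_spec.uniq h))

theorem cp_zero {l' : T.Λ} {f : T.V} (h : ∀ l, Rl T d s l l' → T.res f l = 0) : A.cp d s l' f = 0 := by
  by_cases h1 : ∃ l, Rl T d s l l'
  · obtain ⟨l, hl⟩ := h1
    rw [A.cp_of hl, h l hl, map_zero]
  · exact dif_neg h1

variable (d s)

/-- **the operator of a family** -/
noncomputable def op : End ℂ T.V where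
  toFun f := ⟨fun y => A.cp d s y.1 f y.2, fun l' => by
      change IsClassFunction (T.G l') (A.cp d s l' f)
      by_cases h1 : ∃ l, Rl T d s l l'
      · obtain ⟨l, hl⟩ := h1
        rw [A.cp_of hl]
        exact A.cls _ _ _ (res_cls f l)
      · rw [A.cp_zero fun l hl => absurd ⟨l, hl⟩ h1]
        exact fun _ _ => rfl, by
      obtain ⟨N, hN⟩ := f.2.2
      refine ⟨N + d.toNat, fun x hx => ?_⟩
      refine congrFun (A.cp_zero fun l hl => funext fun g => hN ⟨l, g⟩ ?_) x.2
      have := hl.1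
      change N < T.rk l
      omega⟩
  map_add' f g := Subtype.ext (funext fun y => congrFun (map_add (A.cp d s y.1) f g) y.2)
  map_smul' c f := Subtype.ext (funext fun y => congrFun (map_smul (A.cp d s y.1) c f) y.2)

variable {d s}

theorem res_op {l l' : T.Λ} (h : Rl T d s l l') (f : T.V) : T.res (A.op d s f) l' = A.A l' l (T.res f l) := A.cp_of h f

theorem res_op_zero {l' : T.Λ} {f : T.V} (h : ∀ l, Rl T d s l l' → T.res f l = 0) : T.res (A.op d s f) l' = 0 :=
  A.cp_zero h

theorem res_op_op_zero (B : Fam T) {d' : ℤ} {s' : ZMod 4} {l' : T.Λ} {f : T.V}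
    (h : ∀ l, Rl T (d' + d) (s' + s) l l' → T.res f l = 0) : T.res (A.op d s (B.op d' s' f)) l' = 0 :=
  A.res_op_zero fun m hm => B.res_op_zero fun l hl => h l
    ⟨by have := hm.1; have := hl.1; omega, by rw [← add_assoc, hl.2, hm.2]⟩

open Classical in
theorem op_apply (f : T.V) (y : T.X) :
    (A.op d s f).1 y = ∑ᶠ l, if Rl T d s l y.1 then A.A y.1 l (T.res f l) y.2 else 0 := by
  change T.res (A.op d s f) y.1 y.2 = _
  by_cases h1 : ∃ l, Rl T d s l y.1
  · obtain ⟨l, hl⟩ := h1
    rw [finsum_eq_single _ l fun m hm => if_neg fun h => hm (h.uniq hl), if_pos hl, A.res_op hl]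
  · rw [A.res_op_zero fun l hl => absurd ⟨l, hl⟩ h1, finsum_eq_zero_of_forall_eq_zero fun l => if_neg fun h => h1 ⟨l, h⟩]
    rfl

end Fam

/-- `u` lives on the group `l` -/
def Sup (u : T.V) (l : T.Λ) : Prop := ∀ m, m ≠ l → T.res u m = 0

variable {H : HS T.V}

theorem exists_sup (hH : Mod T H) (i : H.ι) : ∃ l, T.rk l = H.rk i ∧ T.df l = H.df i ∧ Sup (H.b i) l := by
  obtain ⟨l, h1, h2, -, h3⟩ := hH.irr i
  exact ⟨l, h1, h2, fun m hm => funext fun g => h3 ⟨m, g⟩ hm⟩

theorem sup_of (hH : Mod T H) {i : H.ι} {l : T.Λ} (h1 : H.rk i = T.rk l) (h2 : H.df i = T.df l) : Sup (H.b i) l := by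
  obtain ⟨m, e1, e2, h⟩ := exists_sup hH i
  rwa [← T.inj m l (e1.trans h1) (e2.trans h2)]

theorem inner_zero_left {G : Type} [Group G] [Fintype G] (f : G → ℂ) : classInner 0 f = 0 := by simp [classInner]

theorem inner_zero_right {G : Type} [Group G] [Fintype G] (f : G → ℂ) : classInner f 0 = 0 := by simp [classInner]

theorem ip_left (hH : Mod T H) {u : T.V} {l : T.Λ} (h : Sup u l) (v : T.V) :
    H.ip u v = classInner (T.res u l) (T.res v l) := by
  rw [hH.ip, finsum_eq_single _ l fun m hm => by rw [h m hm, inner_zero_left]]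

theorem ip_right (hH : Mod T H) (u : T.V) {v : T.V} {l : T.Λ} (h : Sup v l) :
    H.ip u v = classInner (T.res u l) (T.res v l) := by
  rw [hH.ip, finsum_eq_single _ l fun m hm => by rw [h m hm, inner_zero_right]]

namespace Fam

variable (A : Fam T) (d : ℤ) (s : ZMod 4)

theorem op_hom (hH : Mod T H) : H.Hom (A.op d s) d s := by
  intro i
  obtain ⟨l, h1, h2, h3⟩ := exists_sup hH i
  refine ⟨(hH.gr _ _).2 fun x hx => ?_, (hH.cmp _ _).2 fun x hx => ?_⟩
  · refine congrFun (A.res_op_zero fun m hm => h3 m ?_) x.2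
    rintro rfl
    exact hx (by rw [← hm.1, h1])
  · refine congrFun (A.res_op_zero fun m hm => h3 m ?_) x.2
    rintro rfl
    exact hx (by rw [← hm.2, h2])

theorem op_itg (hH : Mod T H)
    (h : ∀ l' l f, IsGeneralizedCharacter (T.G l) f → IsGeneralizedCharacter (T.G l') (A.A l' l f)) :
    H.Itg (A.op d s) := by
  intro u hu
  refine (hH.z _).2 fun l' => ?_
  by_cases h1 : ∃ l, Rl T d s l l'
  · obtain ⟨l, hl⟩ := h1
    rw [A.res_op hl]
    exact h _ _ _ ((hH.z _).1 hu l)
  · rw [A.res_op_zero fun l hl => absurd ⟨l, hl⟩ h1]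
    exact (hH.z 0).1 H.Z.zero_mem l'

theorem op_adj (hH : Mod T H) (B : Fam T)
    (h : ∀ l' l f φ, classInner (A.A l' l f) φ = classInner f (B.A l l' φ)) : H.Adj (A.op d s) (B.op (-d) (-s)) := by
  refine Rel.adj_of fun i j => ?_
  obtain ⟨l, -, -, h3⟩ := exists_sup hH i
  obtain ⟨l', -, -, h3'⟩ := exists_sup hH j
  rw [← Rel.ip_b_right, ← Rel.ip_b_left, ip_right hH _ h3', ip_left hH h3]
  by_cases h1 : Rl T d s l l'
  · rw [A.res_op h1, B.res_op h1.symm, h]
  · rw [A.res_op_zero fun m hm => h3 m (by rintro rfl; exact h1 hm), B.res_op_zero fun m hm => h3' m (by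
      rintro rfl
      have := hm.symm
      rw [neg_neg, neg_neg] at this
      exact h1 this), inner_zero_left, inner_zero_right]

end Fam

end Cfsg.Agent.PQ.Tw
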